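import Cfsg.Agent.OD.Pre
import Cfsg.Agent.H6.TCTop
import Cfsg.Agent.H6.LT12.C
set_option autoImplicit false
set_option maxRecDepth 100000
set_option Elab.async false
set_option linter.all false
namespace CfH6.LT12
open CfH6
theorem p0 : C.OkL 256 2304 := C.okL_of 256 16 0 2304 (by decide) (by decide +kernel)
theorem p1 : C.OkL 2304 4352 := C.okL_of 2304 16 0 4352 (by decide) (by decide +kernel)
theorem p2 : C.OkL 4352 6400 := C.okL_of 4352 16 0 6400 (by decide) (by decide +kernel)
theorem p3 : C.OkL 6400 8576 := C.okL_of 6400 17 0 8576 (by decide) (by decide +kernel)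
theorem p4 : C.OkL 8576 10624 := C.okL_of 8576 16 0 10624 (by decide) (by decide +kernel)
theorem p5 : C.OkL 10624 12800 := C.okL_of 10624 17 0 12800 (by decide) (by decide +kernel)
theorem p6 : C.OkL 12800 14976 := C.okL_of 12800 17 0 14976 (by decide) (by decide +kernel)
theorem p7 : C.OkL 14976 17152 := C.okL_of 14976 17 0 17152 (by decide) (by decide +kernel)
theorem p8 : C.OkL 17152 19328 := C.okL_of 17152 17 0 19328 (by decide) (by decide +kernel)
theorem p9 : C.OkL 19328 21504 := C.okL_of 19328 17 0 21504 (by decide) (by decide +kernel)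
theorem p10 : C.OkL 21504 23680 := C.okL_of 21504 17 0 23680 (by decide) (by decide +kernel)
theorem p11 : C.OkL 23680 25856 := C.okL_of 23680 17 0 25856 (by decide) (by decide +kernel)
theorem p12 : C.OkL 25856 28160 := C.okL_of 25856 18 0 28160 (by decide) (by decide +kernel)
theorem p13 : C.OkL 28160 30336 := C.okL_of 28160 17 0 30336 (by decide) (by decide +kernel)
theorem p14 : C.OkL 30336 32512 := C.okL_of 30336 17 0 32512 (by decide) (by decide +kernel)
theorem p15 : C.OkL 32512 34688 := C.okL_of 32512 17 0 34688 (by decide) (by decide +kernel)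
theorem p16 : C.OkL 34688 36864 := C.okL_of 34688 17 0 36864 (by decide) (by decide +kernel)
theorem p17 : C.OkL 36864 39040 := C.okL_of 36864 17 0 39040 (by decide) (by decide +kernel)
theorem p18 : C.OkL 39040 41216 := C.okL_of 39040 17 0 41216 (by decide) (by decide +kernel)
theorem p19 : C.OkL 41216 43392 := C.okL_of 41216 17 0 43392 (by decide) (by decide +kernel)
end CfH6.LT12
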