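import Cfsg.Agent.OD.Pre
import Cfsg.Agent.H6.TCTop
import Cfsg.Agent.H6.LT12.C
set_option autoImplicit false
set_option maxRecDepth 100000
set_option Elab.async false
set_option linter.all false
namespace CfH6.LT12
open CfH6
theorem p20 : C.OkL 43392 45568 := C.okL_of 43392 17 0 45568 (by decide) (by decide +kernel)
theorem p21 : C.OkL 45568 47744 := C.okL_of 45568 17 0 47744 (by decide) (by decide +kernel)
theorem p22 : C.OkL 47744 49920 := C.okL_of 47744 17 0 49920 (by decide) (by decide +kernel)
theorem p23 : C.OkL 49920 52096 := C.okL_of 49920 17 0 52096 (by decide) (by decide +kernel)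
theorem p24 : C.OkL 52096 54272 := C.okL_of 52096 17 0 54272 (by decide) (by decide +kernel)
theorem p25 : C.OkL 54272 56448 := C.okL_of 54272 17 0 56448 (by decide) (by decide +kernel)
theorem p26 : C.OkL 56448 58624 := C.okL_of 56448 17 0 58624 (by decide) (by decide +kernel)
theorem p27 : C.OkL 58624 60800 := C.okL_of 58624 17 0 60800 (by decide) (by decide +kernel)
theorem p28 : C.OkL 60800 62976 := C.okL_of 60800 17 0 62976 (by decide) (by decide +kernel)
theorem p29 : C.OkL 62976 65024 := C.okL_of 62976 16 0 65024 (by decide) (by decide +kernel)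
theorem p30 : C.OkL 65024 67200 := C.okL_of 65024 17 0 67200 (by decide) (by decide +kernel)
theorem p31 : C.OkL 67200 69248 := C.okL_of 67200 16 0 69248 (by decide) (by decide +kernel)
theorem p32 : C.OkL 69248 71296 := C.okL_of 69248 16 0 71296 (by decide) (by decide +kernel)
theorem p33 : C.OkL 71296 73344 := C.okL_of 71296 16 0 73344 (by decide) (by decide +kernel)
theorem p34 : C.OkL 73344 75392 := C.okL_of 73344 16 0 75392 (by decide) (by decide +kernel)
theorem p35 : C.OkL 75392 77440 := C.okL_of 75392 16 0 77440 (by decide) (by decide +kernel)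
theorem p36 : C.OkL 77440 79488 := C.okL_of 77440 16 0 79488 (by decide) (by decide +kernel)
theorem p37 : C.OkL 79488 81536 := C.okL_of 79488 16 0 81536 (by decide) (by decide +kernel)
theorem p38 : C.OkL 81536 83584 := C.okL_of 81536 16 0 83584 (by decide) (by decide +kernel)
theorem p39 : C.OkL 83584 85504 := C.okL_of 83584 15 0 85504 (by decide) (by decide +kernel)
end CfH6.LT12
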