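import Cfsg.Agent.OD.Pre
import Cfsg.Agent.H6.TCTop
import Cfsg.Agent.H6.LT12.C
set_option autoImplicit false
set_option maxRecDepth 100000
set_option Elab.async false
set_option linter.all false
namespace CfH6.LT12
open CfH6
theorem p40 : C.OkL 85504 87424 := C.okL_of 85504 15 0 87424 (by decide) (by decide +kernel)
theorem p41 : C.OkL 87424 89344 := C.okL_of 87424 15 0 89344 (by decide) (by decide +kernel)
theorem p42 : C.OkL 89344 91264 := C.okL_of 89344 15 0 91264 (by decide) (by decide +kernel)
theorem p43 : C.OkL 91264 93184 := C.okL_of 91264 15 0 93184 (by decide) (by decide +kernel)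
theorem p44 : C.OkL 93184 95104 := C.okL_of 93184 15 0 95104 (by decide) (by decide +kernel)
theorem p45 : C.OkL 95104 97024 := C.okL_of 95104 15 0 97024 (by decide) (by decide +kernel)
theorem p46 : C.OkL 97024 98536 := C.okL_of 97024 11 104 98536 (by decide) (by decide +kernel)
theorem p47 : C.OkR 98536 101096 := C.okR_of 98536 20 0 101096 (by decide) (by decide +kernel)
theorem p48 : C.OkR 101096 103656 := C.okR_of 101096 20 0 103656 (by decide) (by decide +kernel)
theorem p49 : C.OkR 103656 105131 := C.okR_of 103656 11 67 105131 (by decide) (by decide +kernel)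
end CfH6.LT12
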